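import Mathlib
import Cfsg.Prelude.Def_SporadicB

/-! Transfer of `IsNonsplitDoubleCover` along an isomorphism of the covering group. -/

namespace Cfsg.Agent.Lib.Helper35

lemma center_map_equiv {H H' : Type*} [Group H] [Group H'] (e : H ≃* H') :
    (Subgroup.center H).map e.toMonoidHom = Subgroup.center H' := by
  ext x
  constructor
  · rintro ⟨y, hy, rfl⟩
    rw [Subgroup.mem_center_iff]
    intro g
    obtain ⟨g', rfl⟩ := e.surjective g
    have := Subgroup.mem_center_iff.mp hy g'
    show e g' * e y = e y * e g'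
    rw [← map_mul, ← map_mul, this]
  · intro hx
    refine ⟨e.symm x, ?_, by simp⟩
    show e.symm x ∈ Subgroup.center H
    rw [Subgroup.mem_center_iff]
    intro g
    apply e.injective
    rw [map_mul, map_mul, e.apply_symm_apply]
    exact Subgroup.mem_center_iff.mp hx (e g)

theorem nonsplitDoubleCover_congr {H H' K : Type*} [Group H] [Group H'] [Group K] (e : H ≃* H')
    (h : Cfsg.IsNonsplitDoubleCover H K) : Cfsg.IsNonsplitDoubleCover H' K := by
  obtain ⟨h1, ⟨f⟩, h3⟩ := h
  have hc := center_map_equiv e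
  refine ⟨?_, ⟨?_⟩, ?_⟩
  · rw [← hc, ← h1]
    exact Subgroup.card_map_of_injective e.injective
  · exact (QuotientGroup.congr (Subgroup.center H) (Subgroup.center H') e hc).symm.trans f
  · intro L hL
    apply h3 (L.map e.symm.toMonoidHom)
    rw [Subgroup.isComplement'_def, Subgroup.isComplement_iff_existsUnique] at hL ⊢
    intro g
    obtain ⟨⟨⟨a, ha⟩, ⟨b, hb⟩⟩, hab, huniq⟩ := hL (e g)
    have ha' : e.symm a ∈ Subgroup.center H := by
      rw [← hc] at ha
      obtain ⟨y, hy, rfl⟩ := ha
      simpa using hy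
    refine ⟨⟨⟨e.symm a, ha'⟩, ⟨e.symm b, ⟨b, hb, rfl⟩⟩⟩, ?_, ?_⟩
    · show e.symm a * e.symm b = g
      rw [← map_mul]
      have : a * b = e g := hab
      rw [this, e.symm_apply_apply]
    · rintro ⟨⟨x, hx⟩, ⟨y, hy⟩⟩ hxy
      have hx' : e x ∈ Subgroup.center H' := by
        rw [← hc]
        exact ⟨x, hx, rfl⟩
      have hy' : e y ∈ L := by
        obtain ⟨y', hy', rfl⟩ := hy
        simpa using hy'
      have hxy' : x * y = g := hxy
      have := huniq ⟨⟨e x, hx'⟩, ⟨e y, hy'⟩⟩ (by show e x * e y = e g; rw [← map_mul, hxy'])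
      simp only [Prod.mk.injEq, Subtype.mk.injEq] at this
      apply Prod.ext
      · apply Subtype.ext
        show x = e.symm a
        rw [← this.1, e.symm_apply_apply]
      · apply Subtype.ext
        show y = e.symm b
        rw [← this.2, e.symm_apply_apply]

/-- conjugation carries centralisers to centralisers -/
noncomputable def centralizerConjEquiv {G : Type*} [Group G] (c a : G) :
    Subgroup.centralizer ({a} : Set G) ≃* Subgroup.centralizer ({c * a * c⁻¹} : Set G) where
  toFun x := ⟨c * x.1 * c⁻¹, by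
    have hx := Subgroup.mem_centralizer_singleton_iff.mp x.2
    rw [Subgroup.mem_centralizer_singleton_iff]
    calc c * x.1 * c⁻¹ * (c * a * c⁻¹) = c * (x.1 * a) * c⁻¹ := by group
      _ = c * (a * x.1) * c⁻¹ := by rw [hx]
      _ = c * a * c⁻¹ * (c * x.1 * c⁻¹) := by group⟩
  invFun x := ⟨c⁻¹ * x.1 * c, by
    have hx := Subgroup.mem_centralizer_singleton_iff.mp x.2
    rw [Subgroup.mem_centralizer_singleton_iff]
    calc c⁻¹ * x.1 * c * a = c⁻¹ * (x.1 * (c * a * c⁻¹)) * c := by group
      _ = c⁻¹ * ((c * a * c⁻¹) * x.1) * c := by rw [hx]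
      _ = a * (c⁻¹ * x.1 * c) := by group⟩
  left_inv x := by
    apply Subtype.ext
    show c⁻¹ * (c * x.1 * c⁻¹) * c = x.1
    group
  right_inv x := by
    apply Subtype.ext
    show c * (c⁻¹ * x.1 * c) * c⁻¹ = x.1
    group
  map_mul' x y := by
    apply Subtype.ext
    show c * (x.1 * y.1) * c⁻¹ = (c * x.1 * c⁻¹) * (c * y.1 * c⁻¹)
    group

end Cfsg.Agent.Lib.Helper35
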