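import Cfsg.Prelude.Def_SporCoxeter

/-! An auxiliary presentation (M11P). -/

namespace Cfsg.Agent.Lib.Helper35

namespace M11P

inductive Gen
  | x
  | y
  deriving DecidableEq

def edges : List (Gen × ℕ × Gen) :=
  [(.x, 1, .x)]

def extraL : List (List (Gen × Bool)) := [
  [(.y, true), (.y, true), (.y, true), (.y, true)],
  [(.x, true), (.y, true), (.x, true), (.y, true), (.x, true), (.y, true), (.x, true), (.y, true), (.x, true), (.y, true), (.x, true), (.y, true), (.x, true), (.y, true), (.x, true), (.y, true), (.x, true), (.y, true), (.x, true), (.y, true), (.x, true), (.y, true)],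
  [(.x, true), (.y, true), (.y, true), (.x, true), (.y, true), (.y, true), (.x, true), (.y, true), (.y, true), (.x, true), (.y, true), (.y, true), (.x, true), (.y, true), (.y, true), (.x, true), (.y, true), (.y, true)],
  [(.x, true), (.y, true), (.x, true), (.y, true), (.x, true), (.y, false), (.x, true), (.y, true), (.x, true), (.y, true), (.y, true), (.x, true), (.y, false), (.x, true), (.y, true), (.x, true), (.y, false), (.x, true), (.y, false)]]

def extra : List (FreeGroup Gen) := extraL.map FreeGroup.mk

end M11P

abbrev M11P : Type := Cfsg.Spor.CoxPresented M11P.Gen M11P.edges M11P.extra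

end Cfsg.Agent.Lib.Helper35
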