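import Cfsg.Prelude.Def_SporCoxeter

/-! An auxiliary presentation (ONN). -/

namespace Cfsg.Agent.Lib.Helper35

namespace ONN

inductive Gen
  | b
  | c
  | d
  | e
  | f
  deriving DecidableEq

def edges : List (Gen × ℕ × Gen) :=
  [(.c, 8, .d), (.d, 3, .e), (.e, 3, .f)]

def extraL : List (List (Gen × Bool)) := [
  [(.b, true), (.b, true), (.b, true)],
  [(.b, true), (.c, true), (.b, true), (.c, true), (.b, true), (.c, true)],
  [(.b, false), (.c, true), (.b, false), (.c, true), (.b, false), (.c, true)],
  [(.b, true), (.d, true), (.b, true), (.d, true)],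
  [(.b, false), (.d, true), (.b, false), (.d, true)],
  [(.b, true), (.e, true), (.b, true), (.e, true)],
  [(.b, false), (.e, true), (.b, false), (.e, true)],
  [(.b, true), (.f, true), (.b, true), (.f, true)],
  [(.b, false), (.f, true), (.b, false), (.f, true)],
  [(.f, true), (.d, true), (.c, true), (.d, true), (.c, true), (.d, true), (.c, true), (.d, true), (.c, true)]]

def extra : List (FreeGroup Gen) := extraL.map FreeGroup.mk

end ONN

abbrev ONN : Type := Cfsg.Spor.CoxPresented ONN.Gen ONN.edges ONN.extra

end Cfsg.Agent.Lib.Helper35
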