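import Cfsg.Prelude.Def_SporCoxeter

/-! An auxiliary presentation (TitsP). -/

namespace Cfsg.Agent.Lib.Helper35

namespace TitsP

inductive Gen
  | p
  | q
  | v
  | r
  | w
  deriving DecidableEq

def edges : List (Gen × ℕ × Gen) :=
  [(.p, 5, .q), (.p, 8, .r), (.p, 4, .w), (.q, 8, .r), (.q, 5, .w), (.r, 8, .w)]

def extraL : List (List (Gen × Bool)) := [
  [(.p, true), (.v, true), (.p, true), (.v, true), (.p, true), (.v, true), (.p, true), (.v, true), (.p, true), (.v, true), (.p, true), (.v, true), (.p, true), (.v, true), (.p, true), (.v, true)],
  [(.q, true), (.v, true), (.q, true), (.v, true), (.q, true), (.v, true), (.q, true), (.v, true), (.q, true), (.v, true), (.q, true), (.v, true), (.q, true), (.v, true), (.q, true), (.v, true), (.q, true), (.v, true), (.q, true), (.v, true), (.q, true), (.v, true), (.q, true), (.v, true), (.q, true), (.v, true), (.q, true), (.v, true), (.q, true), (.v, true), (.q, true), (.v, true)],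
  [(.v, true), (.v, true), (.v, true), (.v, true)],
  [(.v, true), (.r, true), (.v, true), (.r, true), (.v, true), (.r, true), (.v, true), (.r, true), (.v, true), (.r, true), (.v, true), (.r, true), (.v, true), (.r, true), (.v, true), (.r, true), (.v, true), (.r, true), (.v, true), (.r, true), (.v, true), (.r, true), (.v, true), (.r, true), (.v, true), (.r, true), (.v, true), (.r, true), (.v, true), (.r, true), (.v, true), (.r, true)],
  [(.v, true), (.w, true), (.v, true), (.w, true), (.v, true), (.w, true), (.v, true), (.w, true), (.v, true), (.w, true), (.v, true), (.w, true), (.v, true), (.w, true), (.v, true), (.w, true), (.v, true), (.w, true), (.v, true), (.w, true), (.v, true), (.w, true), (.v, true), (.w, true), (.v, true), (.w, true)],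
  [(.r, true), (.q, true), (.p, true), (.q, true), (.r, true), (.q, true), (.p, true), (.q, true)],
  [(.v, true), (.p, true), (.r, true), (.p, true), (.r, true), (.p, true), (.v, false), (.p, true), (.q, true), (.p, true)],
  [(.v, true), (.q, true), (.p, true), (.r, true), (.q, true), (.r, true), (.v, true), (.p, true), (.q, true), (.p, true), (.q, true)],
  [(.v, true), (.r, true), (.v, false), (.r, true), (.v, true), (.p, true), (.v, true), (.p, true), (.q, true)],
  [(.v, false), (.p, true), (.r, true), (.q, true), (.p, true), (.q, true), (.p, true), (.v, true), (.p, true), (.q, true), (.p, true), (.q, true), (.p, true)],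
  [(.v, false), (.r, true), (.v, true), (.q, true), (.v, false), (.r, true), (.v, true), (.q, true)],
  [(.r, true), (.p, true), (.q, true), (.r, true), (.q, true), (.v, true), (.p, true), (.v, false), (.p, true), (.q, true)],
  [(.r, true), (.p, true), (.v, true), (.r, true), (.q, true), (.p, true), (.r, true), (.v, true), (.q, true), (.p, true)],
  [(.w, true), (.p, true), (.v, true), (.p, true), (.v, false), (.p, true), (.w, true), (.p, true), (.v, true), (.p, true), (.v, false), (.p, true)],
  [(.w, true), (.p, true), (.v, false), (.w, true), (.v, true), (.p, true), (.w, true), (.q, true), (.p, true), (.v, true), (.q, true), (.v, false), (.p, true), (.q, true)],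
  [(.w, true), (.q, true), (.r, true), (.q, true), (.r, true), (.q, true), (.w, true), (.p, true), (.v, true), (.p, true), (.v, false), (.p, true)],
  [(.w, true), (.q, true), (.r, true), (.w, true), (.q, true), (.r, true), (.w, true), (.q, true), (.r, true)],
  [(.w, true), (.v, true), (.q, true), (.p, true), (.q, true), (.v, false), (.w, true), (.v, true), (.q, true), (.p, true), (.q, true), (.v, false)],
  [(.w, true), (.v, true), (.r, true), (.w, true), (.r, true), (.v, false), (.w, true), (.v, false), (.p, true), (.v, false), (.p, true), (.r, true), (.q, true), (.p, true)],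
  [(.w, true), (.r, true), (.v, true), (.p, true), (.v, false), (.r, true), (.w, true), (.q, true), (.p, true), (.r, true), (.p, true), (.q, true), (.p, true), (.q, true), (.p, true)],
  [(.w, true), (.p, true), (.v, true), (.r, true), (.w, true), (.p, true), (.w, true), (.v, true), (.w, true), (.v, true), (.r, true), (.v, false), (.q, true), (.v, false), (.p, true), (.q, true), (.p, true), (.q, true), (.p, true)]]

def extra : List (FreeGroup Gen) := extraL.map FreeGroup.mk

end TitsP

abbrev TitsP : Type := Cfsg.Spor.CoxPresented TitsP.Gen TitsP.edges TitsP.extra

end Cfsg.Agent.Lib.Helper35
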