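import Cfsg.Agent.Lib.Helper35.Simple4

/-! Normal forms of words in involutions, one of which commutes with most of the others. -/

namespace Cfsg.Agent.Lib.Helper35

/-- move the letter `a` to the right across the letters of `comm`, cancelling pairs -/
def nfA (a : Nat) (comm : List Nat) : Bool → List Nat → List Nat
  | fl, [] => cond fl [a] []
  | fl, x :: w =>
    if x = a then nfA a comm (!fl) w
    else if x ∈ comm then x :: nfA a comm fl w
    else cond fl (a :: x :: nfA a comm false w) (x :: nfA a comm false w)

lemma wval_nfA {G : Type*} [Group G] (val : Nat → G) (a : Nat) (comm : List Nat) (ha : val a * val a = 1)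
    (hc : ∀ x ∈ comm, val a * val x = val x * val a) :
    ∀ (w : List Nat) (fl : Bool), wval val (nfA a comm fl w) = (cond fl (val a) 1) * wval val w := by
  intro w
  induction w with
  | nil => intro fl; cases fl <;> simp [nfA]
  | cons x w ih =>
    intro fl
    unfold nfA
    by_cases hx : x = a
    · rw [if_pos hx, ih, wval_cons, hx]
      cases fl
      · simp
      · simp only [Bool.not_true, cond_false, cond_true, one_mul]
        rw [← mul_assoc, ha, one_mul]
    · rw [if_neg hx]
      by_cases hm : x ∈ comm
      · rw [if_pos hm, wval_cons, ih, wval_cons]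
        cases fl
        · simp
        · simp only [cond_true]
          rw [← mul_assoc, ← mul_assoc, hc x hm]
      · rw [if_neg hm]
        cases fl
        · simp only [cond_false, wval_cons, ih, one_mul]
        · simp only [cond_true, cond_false, wval_cons, ih, one_mul]

/-- cancel adjacent equal letters `≥ lo` -/
def redW (lo : Nat) : List Nat → List Nat
  | [] => []
  | x :: w =>
    match redW lo w with
    | [] => [x]
    | y :: t => if x = y ∧ lo ≤ x then t else x :: y :: t

lemma wval_redW {G : Type*} [Group G] (val : Nat → G) (lo : Nat) (hsq : ∀ x, lo ≤ x → val x * val x = 1) :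
    ∀ w : List Nat, wval val (redW lo w) = wval val w := by
  intro w
  induction w with
  | nil => rfl
  | cons x w ih =>
    unfold redW
    cases h : redW lo w with
    | nil =>
      rw [h] at ih
      simp only [wval_cons, ← ih]
    | cons y t =>
      rw [h] at ih
      simp only
      by_cases hxy : x = y ∧ lo ≤ x
      · rw [if_pos hxy, wval_cons, ← ih, wval_cons, ← hxy.1, ← mul_assoc, hsq x hxy.2, one_mul]
      · rw [if_neg hxy, wval_cons, wval_cons val x w, ← ih]

/-- triviality of a word from its normal form -/
lemma wval_eq_one_of_nf {G : Type*} [Group G] (val : Nat → G) (a lo : Nat) (comm : List Nat) (hlo : lo ≤ a)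
    (hsq : ∀ x, lo ≤ x → val x * val x = 1) (hc : ∀ x ∈ comm, val a * val x = val x * val a)
    (R : List (List Nat)) (hR : ∀ r ∈ R, wval val r = 1) (w : List Nat)
    (h : redW lo (nfA a comm false w) ∈ ([] : List Nat) :: R ∨ redW lo (nfA a comm false (a :: (w ++ [a]))) ∈ R ∨
      redW lo (nfA a comm false w) ∈ R.map (fun r => r.rotate 1)) : wval val w = 1 := by
  have ha := hsq a hlo
  have key : ∀ u : List Nat, wval val (redW lo (nfA a comm false u)) = wval val u := by
    intro u
    rw [wval_redW val lo hsq, wval_nfA val a comm ha hc]
    simp
  rcases h with h | h | h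
  · rw [← key w]
    rcases List.mem_cons.mp h with h | h
    · rw [h]; rfl
    · exact hR _ h
  · have h1 := hR _ h
    rw [key, wval_cons, wval_append] at h1
    simp only [wval_cons, wval_nil, mul_one] at h1
    have hai : (val a)⁻¹ = val a := inv_eq_of_mul_eq_one_left ha
    calc wval val w = (val a)⁻¹ * (val a * (wval val w * val a)) * (val a)⁻¹ := by group
      _ = 1 := by rw [h1, hai, mul_one, ha]
  · obtain ⟨r, hr, he⟩ := List.mem_map.mp h
    rw [← key w, ← he]
    exact wval_rotate val r (hR r hr) 1

end Cfsg.Agent.Lib.Helper35
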