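import Cfsg.Agent.Lib.Helper35.ONOrd.Main
import Cfsg.Agent.Lib.Helper35.ONNOrd.Main
import Cfsg.Agent.Lib.Helper35.Simple5
import Cfsg.Agent.Lib.Helper6.SLCard

/-! The subgroup `⟨a, …, f⟩` of the presented O'Nan group has a subgroup of index 2 isomorphic to `PSL(3, 7)`. -/

namespace Cfsg.Agent.Lib.Helper35.ONIso

open Cfsg.Agent.Lib.Helper35 Cfsg.Spor Matrix

set_option maxRecDepth 100000

abbrev SL37 := Matrix.SpecialLinearGroup (Fin 3) (ZMod 7)
abbrev PSL37 := Matrix.ProjectiveSpecialLinearGroup (Fin 3) (ZMod 7)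

def Mb : SL37 := ⟨!![1,0,0;0,2,0;0,0,4], by decide +kernel⟩
def Mb' : SL37 := ⟨!![1,0,0;0,4,0;0,0,2], by decide +kernel⟩
def Mc : SL37 := ⟨!![1,2,2;2,1,5;2,5,1], by decide +kernel⟩
def Md : SL37 := ⟨!![0,0,3;0,3,0;3,0,0], by decide +kernel⟩
def Me : SL37 := ⟨!![0,1,0;1,0,0;0,0,6], by decide +kernel⟩
def Mf : SL37 := ⟨!![0,0,1;0,6,0;1,0,0], by decide +kernel⟩

def vS : Nat → SL37
  | 0 => Mb
  | 1 => Mb'
  | 2 => Mc
  | 3 => Md
  | 4 => Me
  | 5 => Mf
  | _ => 1

noncomputable def vP (c : Nat) : PSL37 := QuotientGroup.mk' _ (vS c)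

theorem scal : ∀ b ∈ PresONN.R, ∃ r : ZMod 7, r ^ 3 = 1 ∧ Matrix.scalar (Fin 3) r = (wval vS b).1 := by
  decide +kernel

theorem scalInv : ∀ c ∈ List.range 6, ∃ r : ZMod 7, r ^ 3 = 1 ∧
    Matrix.scalar (Fin 3) r = (vS (PresONN.cc.inv c) * vS c).1 := by
  decide +kernel

theorem notScal : ¬ ∃ r : ZMod 7, Matrix.scalar (Fin 3) r = Mb.1 := by decide +kernel

lemma mk_eq_one (A : SL37) (h : ∃ r : ZMod 7, r ^ 3 = 1 ∧ Matrix.scalar (Fin 3) r = A.1) :
    (QuotientGroup.mk' (Subgroup.center SL37) A) = 1 := by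
  rw [QuotientGroup.mk'_apply, QuotientGroup.eq_one_iff, Matrix.SpecialLinearGroup.mem_center_iff]
  obtain ⟨r, h1, h2⟩ := h
  exact ⟨r, by simpa using h1, h2⟩

lemma inj_of_simple {A B : Type*} [Group A] [Group B] [IsSimpleGroup A] (f : A →* B) (a : A) (ha : f a ≠ 1) :
    Function.Injective f := by
  rw [← MonoidHom.ker_eq_bot_iff]
  rcases (MonoidHom.normal_ker f).eq_bot_or_eq_top with h | h
  · exact h
  · exfalso
    apply ha
    have : a ∈ f.ker := by rw [h]; exact Subgroup.mem_top a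
    exact this

noncomputable abbrev IN := ONNOrd.I
noncomputable abbrev IG := ONOrd.I

theorem simpleN : IsSimpleGroup ONN := ONNOrd.main.1

theorem card_PSL37 : Nat.card PSL37 = 1876896 := by
  haveI : Fact (Nat.Prime 7) := ⟨by norm_num⟩
  have h := Cfsg.Agent.Lib.Helper6.card_PSL_field (F := ZMod 7) 3 (by norm_num)
  rw [ZMod.card 7, Fin.prod_univ_three] at h
  have h2 : Nat.gcd 3 (7 - 1) = 3 := by decide
  rw [h2] at h
  simp only [Fin.val_zero, Fin.val_one, Fin.val_two] at h
  have h3 : (7 ^ 3 - 7 ^ 0) * (7 ^ 3 - 7 ^ 1) * (7 ^ 3 - 7 ^ 2) = 33784128 := by norm_num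
  rw [h3] at h
  have h4 : Nat.card (Matrix.ProjectiveSpecialLinearGroup (Fin 3) (ZMod 7)) = Nat.card PSL37 := rfl
  rw [h4] at h
  omega

/-- the isomorphism with the matrix group -/
theorem exists_equiv_psl : Nonempty (ONN ≃* PSL37) := by
  haveI := simpleN
  obtain ⟨f, hf⟩ := IN.lift vP
    (fun c hc => by
      obtain ⟨k, rfl⟩ : ∃ k, c = k + 6 := ⟨c - 6, by have : 6 ≤ c := hc; omega⟩
      exact map_one _)
    (fun c => by
      rcases Nat.lt_or_ge c 6 with hc | hc
      · apply eq_inv_of_mul_eq_one_left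
        have h := mk_eq_one _ (scalInv c (List.mem_range.mpr hc))
        rw [map_mul] at h
        exact h
      · have h1 : IN.inv c = c := PresONN.hinvE c hc
        rw [h1]
        obtain ⟨k, rfl⟩ : ∃ k, c = k + 6 := ⟨c - 6, by omega⟩
        have h2 : vP (k + 6) = 1 := map_one _
        rw [h2, inv_one])
    (fun b hb => by
      rw [← map_wval (QuotientGroup.mk' (Subgroup.center SL37)) vS vP (fun _ => rfl)]
      exact mk_eq_one _ (scal b hb))
  have hne : f (IN.val 0) ≠ 1 := by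
    rw [hf]
    intro h
    have h1 : Mb ∈ Subgroup.center SL37 := (QuotientGroup.eq_one_iff _).mp h
    rw [Matrix.SpecialLinearGroup.mem_center_iff] at h1
    obtain ⟨r, _, h2⟩ := h1
    exact notScal ⟨r, h2⟩
  have hinj := inj_of_simple f _ hne
  haveI : Finite PSL37 := Nat.finite_of_card_ne_zero (by rw [card_PSL37]; norm_num)
  have hbij := hinj.bijective_of_nat_card_le (by rw [card_PSL37, ONNOrd.main.2])
  exact ⟨MulEquiv.ofBijective f hbij⟩

/-! the embedding into the presented O'Nan group -/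

def Wn : List (List Nat) := [[3, 2], [2, 3], [4, 2], [5, 2], [6, 2], [7, 2]]
def WH : List (List Nat) := [[2], [3], [4], [5], [6], [7]]

noncomputable def v (c : Nat) : ON := wval IG.val (Wn.getD c [])

theorem invG (x : Nat) (hx : 2 ≤ x) : IG.inv x = x := by
  rcases Nat.lt_or_ge x 8 with h | h
  · interval_cases x <;> rfl
  · exact PresON.hinvE x h

theorem hsqG (x : Nat) (hx : 2 ≤ x) : IG.val x * IG.val x = 1 := by
  have h := IG.hinv x
  rw [invG x hx] at h
  exact mul_eq_one_iff_eq_inv.mpr h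

theorem hcommG : ∀ x ∈ ([4, 5, 6, 7] : List Nat), IG.val 2 * IG.val x = IG.val x * IG.val 2 := by
  intro x hx
  have hm : ∀ x ∈ ([4, 5, 6, 7] : List Nat), [2, x, 2, x] ∈ PresON.R ∧ 2 ≤ x := by decide +kernel
  have h1 := IG.hR _ (hm x hx).1
  simp only [wval_cons, wval_nil, mul_one] at h1
  exact comm_of_pair _ _ (hsqG 2 le_rfl) (hsqG x (hm x hx).2) h1

def nfOK (w : List Nat) : Prop :=
  redW 2 (nfA 2 [4, 5, 6, 7] false w) ∈ ([] : List Nat) :: PresON.R ∨
    redW 2 (nfA 2 [4, 5, 6, 7] false (2 :: (w ++ [2]))) ∈ PresON.R ∨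
    redW 2 (nfA 2 [4, 5, 6, 7] false w) ∈ PresON.R.map (fun r => r.rotate 1)

instance (w : List Nat) : Decidable (nfOK w) := by unfold nfOK; infer_instance

theorem triv (w : List Nat) (h : nfOK w) : wval IG.val w = 1 :=
  wval_eq_one_of_nf IG.val 2 2 [4, 5, 6, 7] le_rfl hsqG hcommG PresON.R IG.hR w h

theorem keyRel : ∀ b ∈ PresONN.R, nfOK (expand Wn b) := by decide +kernel
theorem keyInv : ∀ c ∈ List.range 6, nfOK (Wn.getD (PresONN.cc.inv c) [] ++ Wn.getD c []) := by decide +kernel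

theorem exists_emb : ∃ π : ONN →* ON, ∀ c, π (IN.val c) = v c :=
  IN.lift v
    (fun c hc => by
      have h : Wn.getD c [] = [] := List.getD_eq_default _ _ hc
      unfold v
      rw [h]; rfl)
    (fun c => by
      rcases Nat.lt_or_ge c 6 with hc | hc
      · apply eq_inv_of_mul_eq_one_left
        unfold v
        rw [← wval_append]
        exact triv _ (keyInv c (List.mem_range.mpr hc))
      · have h1 : IN.inv c = c := PresONN.hinvE c hc
        have h : Wn.getD c [] = [] := List.getD_eq_default _ _ hc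
        rw [h1]
        unfold v
        rw [h]; simp)
    (fun b hb => by
      have h := wval_expand IG.val Wn b
      have h2 : wval v b = wval (fun c => wval IG.val (Wn.getD c [])) b := rfl
      rw [h2, h]
      exact triv _ (keyRel b hb))

theorem main : ∃ N : Subgroup (wsub IG.val WH), N.Normal ∧ N.index = 2 ∧ Nonempty (N ≃* PSL37) := by
  haveI := simpleN
  obtain ⟨π, hπ⟩ := exists_emb
  obtain ⟨Φ, hΦ⟩ := exists_perm_hom IG ON122760.permData
  have hne : π (IN.val 0) ≠ 1 := by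
    rw [hπ]
    exact model_ne ON122760.permData IG.val Φ hΦ [3, 2] [] (by decide +kernel) (by decide +kernel) 1
      (by decide +kernel) (by decide +kernel)
  have hinj := inj_of_simple π _ hne
  set H := wsub IG.val WH with hH
  have hle : π.range ≤ H := by
    rw [MonoidHom.range_eq_map, ← IN.hgen, MonoidHom.map_closure, Subgroup.closure_le]
    rintro _ ⟨_, ⟨c, hc, rfl⟩, rfl⟩
    rw [hπ]
    have hc' : c < Wn.length := hc
    have h1 : Wn.getD c [] ∈ WH ++ Wn := by
      rw [List.getD_eq_getElem _ _ hc']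
      exact List.mem_append_right _ (List.getElem_mem hc')
    have h2 := mem_wsub IG.val (WH ++ Wn) _ h1
    rw [wsub_append_of_letters IG.val WH Wn (by decide +kernel)] at h2
    exact h2
  have hcardN : Nat.card π.range = 1876896 := by
    rw [← ONNOrd.main.2]
    exact (Nat.card_congr (MonoidHom.ofInjective hinj).toEquiv).symm
  have hcardH : Nat.card H = 3753792 := by
    obtain ⟨hfin, hup⟩ := ONOrd.up1
    have hlo := ONOrd.lo1
    haveI : Finite H := hfin
    have hm : H.map Φ = wsub ON122760.permData.pv WH := map_wsub Φ IG.val _ hΦ WH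
    have h3 : Nat.card (H.map Φ) ≤ Nat.card H :=
      Nat.card_le_card_of_surjective _ (Φ.subgroupMap_surjective H)
    rw [hm] at h3
    exact le_antisymm hup (le_trans hlo h3)
  set N := π.range.subgroupOf H with hN
  have e1 : N ≃* π.range := Subgroup.subgroupOfEquivOfLe hle
  have hcardN' : Nat.card N = 1876896 := by rw [Nat.card_congr e1.toEquiv, hcardN]
  have hidx : N.index = 2 := by
    have h := Subgroup.card_mul_index N
    rw [hcardN', hcardH] at h
    omega
  obtain ⟨e3⟩ := exists_equiv_psl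
  exact ⟨N, Subgroup.normal_of_index_eq_two hidx, hidx,
    ⟨e1.trans ((MonoidHom.ofInjective hinj).symm.trans e3)⟩⟩

end Cfsg.Agent.Lib.Helper35.ONIso
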