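import Cfsg.Agent.Lib.Helper35.Order
import Cfsg.Agent.Lib.Helper35.TCFast

/-! Auxiliary tables for sub-words, used to check long relators of a permutation model cheaply. -/

namespace Cfsg.Agent.Lib.Helper35

lemma pwalk_lt_raw (pt : Nat → Nat → Nat) (n C : Nat)
    (hlt : ∀ c, c < C → ∀ i, i < n → pt c i < n)
    (W : List Nat) (hW : ∀ c ∈ W, c < C) (i : Nat) (hi : i < n) : pwalk pt W i < n := by
  induction W generalizing i with
  | nil => exact hi
  | cons c W ih =>
    show pwalk pt W (pt c i) < n
    exact ih (fun c' hc' => hW c' (List.mem_cons_of_mem _ hc')) _ (hlt c (hW c List.mem_cons_self) i hi)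

/-- walking with the tables `qt` of the words `Ws` is walking along the expanded word -/
theorem pwalk_expand_raw (pt qt : Nat → Nat → Nat) (n C : Nat) (Ws : List (List Nat))
    (hlt : ∀ c, c < C → ∀ i, i < n → pt c i < n)
    (hWC : ∀ W ∈ Ws, ∀ c ∈ W, c < C)
    (hq : ∀ c, c < Ws.length → ∀ i, i < n → qt c i = pwalk pt (Ws.getD c []) i)
    (b : List Nat) (hb : ∀ c ∈ b, c < Ws.length) (i : Nat) (hi : i < n) :
    pwalk pt (expand Ws b) i = pwalk qt b i := by
  induction b generalizing i with
  | nil => rfl
  | cons c b ih =>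
    have e : expand Ws (c :: b) = Ws.getD c [] ++ expand Ws b := by
      unfold expand; rw [List.flatMap_cons]
    have hc : c < Ws.length := hb c List.mem_cons_self
    have hW : ∀ l ∈ Ws.getD c [], l < C := by
      rw [List.getD_eq_getElem _ _ hc]
      exact hWC _ (List.getElem_mem hc)
    rw [e, pwalk_append, ih (fun c' hc' => hb c' (List.mem_cons_of_mem _ hc')) _
      (pwalk_lt_raw pt n C hlt _ hW i hi), ← hq c hc i hi]
    rfl

end Cfsg.Agent.Lib.Helper35
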