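import Cfsg.Agent.Lib.Helper35.SubTab

/-! The permutation group generated by a faithful model of a presented group. -/

namespace Cfsg.Agent.Lib.Helper35

section

variable {G : Type} [Group G] (I : PresIface G) {S : List (List Nat)} {n : Nat}
  (D : PermData I.C I.inv I.R S n) (Φ : G →* Equiv.Perm (Fin (n + 1))) (hΦ : ∀ c, Φ (I.val c) = D.pv c)

include hΦ in
lemma wval_pv_mem_range (W : List Nat) : wval D.pv W ∈ Φ.range :=
  ⟨wval I.val W, map_wval Φ I.val D.pv hΦ W⟩

include hΦ in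
lemma range_pretransitive : MulAction.IsPretransitive Φ.range (Fin (n + 1)) := by
  have h0 : ∀ i : Fin (n + 1), ∃ g : Φ.range, g • (0 : Fin (n + 1)) = i := by
    intro i
    obtain ⟨W, hW⟩ := D.pv_reach i
    exact ⟨⟨(wval D.pv W)⁻¹, Φ.range.inv_mem (wval_pv_mem_range I D Φ hΦ W)⟩, hW⟩
  constructor
  intro x y
  obtain ⟨g, hg⟩ := h0 x
  obtain ⟨g', hg'⟩ := h0 y
  refine ⟨g' * g⁻¹, ?_⟩
  rw [← hg, mul_smul, inv_smul_smul, hg']

include hΦ in
lemma range_card_stabilizer (x : Fin (n + 1)) :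
    Nat.card (MulAction.stabilizer Φ.range x) * (n + 1) = Nat.card Φ.range := by
  haveI := range_pretransitive I D Φ hΦ
  have h1 := Subgroup.card_mul_index (MulAction.stabilizer Φ.range x)
  rw [MulAction.index_stabilizer, MulAction.orbit_eq_univ] at h1
  simpa using h1

lemma range_simple_card (hinj : Function.Injective Φ) [IsSimpleGroup G] :
    IsSimpleGroup Φ.range ∧ Nat.card Φ.range = Nat.card G :=
  ⟨(MonoidHom.ofInjective hinj).symm.isSimpleGroup, Nat.card_congr (MonoidHom.ofInjective hinj).symm.toEquiv⟩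

include hΦ in
/-- a simple presented group mapped nontrivially into the model by tables gives a simple subgroup -/
theorem exists_simple_of_subTab {P : Type} [Group P] [IsSimpleGroup P] (I' : PresIface P)
    {Ws : List (List Nat)} (T : SubTab D Ws) (hlen : Ws.length = I'.C)
    (hinvC : ∀ c, c < I'.C → I'.inv c < I'.C) (hinvE : ∀ c, I'.C ≤ c → I'.inv c = c)
    (hRC : ∀ b ∈ I'.R, ∀ c ∈ b, c < I'.C)
    (hinv : ∀ c, c < I'.C → ∀ i, i < n + 1 → pwalk T.qt [I'.inv c, c] i = i)
    (hrel : ∀ b ∈ I'.R, ∀ i, i < n + 1 → pwalk T.qt b i = i)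
    (c0 i0 : Nat) (hi0 : i0 < n + 1) (hne : pwalk D.pt (Ws.getD c0 []) i0 ≠ pwalk D.pt [] i0) :
    ∃ L : Subgroup Φ.range, IsSimpleGroup L ∧ Nat.card L = Nat.card P := by
  obtain ⟨Θ, hΘ⟩ := T.exists_hom I' hlen hinvC hinvE hRC hinv hrel
  apply exists_simple_subgroup Φ.range Θ
    (range_le_of_letters I' Θ Φ.range (fun c => by rw [hΘ c]; exact wval_pv_mem_range I D Φ hΦ _)) (I'.val c0)
  rw [hΘ c0]
  have := model_ne D D.pv (MonoidHom.id _) (fun _ => rfl) (Ws.getD c0 []) [] (T.getD_lt c0)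
    (by intro c hc; simp at hc) i0 hi0 hne
  simpa using this

end

end Cfsg.Agent.Lib.Helper35
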