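import Cfsg.Prelude.Def_Spor_ON
import Cfsg.Agent.Lib.Helper35.Orbit

namespace Cfsg.Agent.Lib.Helper35.PresON

open Cfsg.Spor

def colIdx : ON.Gen → Nat
  | .g => 0
  | .a => 2
  | .b => 3
  | .c => 4
  | .d => 5
  | .e => 6
  | .f => 7
def cc : CoxCols ON.Gen := ⟨[1, 0, 2, 3, 4, 5, 6, 7], colIdx,
  [(.g, true), (.g, false), (.a, true), (.b, true), (.c, true), (.d, true), (.e, true), (.f, true)]⟩
def extraL : List (List (ON.Gen × Bool)) := [
  [(.a, true), (.f, true), (.g, false), (.g, false)],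
  [(.a, true), (.f, true), (.d, false), (.c, false), (.d, false), (.c, false), (.d, false), (.c, false), (.d, false), (.c, false)],
  [(.c, true), (.g, false), (.d, false), (.g, false), (.d, false), (.c, true), (.d, true), (.g, true), (.d, true), (.g, true)],
  [(.d, true), (.g, false), (.c, false), (.g, false), (.c, false), (.d, true), (.c, true), (.g, true), (.c, true), (.g, true)],
  [(.b, true), (.c, true), (.d, true), (.g, true), (.b, true), (.c, true), (.d, true), (.g, true), (.b, true), (.c, true), (.d, true), (.g, true), (.b, true), (.c, true), (.d, true), (.g, true), (.b, true), (.c, true), (.d, true), (.g, true)],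
  [(.g, true), (.b, true), (.c, false), (.g, true), (.c, true), (.b, false), (.g, true), (.b, true), (.c, false), (.g, true), (.c, true)],
  [(.g, true), (.e, true), (.d, false), (.g, true), (.d, true), (.e, false), (.g, true), (.e, true), (.d, false), (.g, true), (.d, true)]]
def R : List (List Nat) := [[2, 3, 2, 3, 2, 3],
  [2, 4, 2, 4],
  [2, 5, 2, 5],
  [2, 6, 2, 6],
  [2, 7, 2, 7],
  [3, 4, 3, 4, 3, 4],
  [3, 5, 3, 5],
  [3, 6, 3, 6],
  [3, 7, 3, 7],
  [4, 5, 4, 5, 4, 5, 4, 5, 4, 5, 4, 5, 4, 5, 4, 5],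
  [4, 6, 4, 6],
  [4, 7, 4, 7],
  [5, 6, 5, 6, 5, 6],
  [5, 7, 5, 7],
  [6, 7, 6, 7, 6, 7],
  [2, 7, 1, 1],
  [2, 7, 5, 4, 5, 4, 5, 4, 5, 4],
  [4, 1, 5, 1, 5, 4, 5, 0, 5, 0],
  [5, 1, 4, 1, 4, 5, 4, 0, 4, 0],
  [3, 4, 5, 0, 3, 4, 5, 0, 3, 4, 5, 0, 3, 4, 5, 0, 3, 4, 5, 0],
  [0, 3, 4, 0, 4, 3, 0, 3, 4, 0, 4],
  [0, 6, 5, 0, 5, 6, 0, 6, 5, 0, 5]]
def allGens : List ON.Gen := [.g, .a, .b, .c, .d, .e, .f]
theorem hall : ∀ x, x ∈ allGens := by intro x; cases x <;> decide
theorem hextra : ON.extra = extraL.map FreeGroup.mk := rfl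
set_option maxRecDepth 100000 in
theorem hOK : cc.OK ON.edges extraL R allGens where
  hlen := by decide +kernel
  c1 := by
    have h : ∀ c ∈ List.range cc.C, ∀ p ∈ cc.cols[c]?, cc.colOf p = c := by decide +kernel
    exact h
  c2 := by decide +kernel
  c3 := by decide +kernel
  c4 := by
    have h : ∀ c ∈ List.range cc.C, ∀ p ∈ cc.cols[c]?,
      cc.cols[cc.inv c]? = some (p.1, !p.2) ∨ (cc.inv c = c ∧ p.1 ∈ coxNodes ON.edges) := by decide +kernel
    exact h
  c5 := by decide +kernel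
  e1 := by decide +kernel
  x1 := by decide +kernel
  r1 := by decide +kernel
theorem hinvC : ∀ c, c < cc.C → cc.inv c < cc.C := fun c hc => (hOK.c3 c (List.mem_range.mpr hc)).1
theorem hinv2 : ∀ c, c < cc.C → cc.inv (cc.inv c) = c := fun c hc => (hOK.c3 c (List.mem_range.mpr hc)).2
theorem hinvE : ∀ c, cc.C ≤ c → cc.inv c = c := fun c hc => inv_ge cc hOK.hlen c hc
theorem hRC : ∀ b ∈ R, ∀ c ∈ b, c < cc.C := by decide +kernel

end Cfsg.Agent.Lib.Helper35.PresON
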