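import Cfsg.Agent.Lib.Helper35.DefRuP
import Cfsg.Agent.Lib.Helper35.Orbit

namespace Cfsg.Agent.Lib.Helper35.PresRuP

open Cfsg.Spor

def colIdx : RuP.Gen → Nat
  | .p => 0
  | .q => 1
  | .v => 2
  | .r => 4
  | .w => 5
  | .s => 6
  | .t => 8
def cc : CoxCols RuP.Gen := ⟨[0, 1, 3, 2, 4, 5, 7, 6, 8], colIdx,
  [(.p, true), (.q, true), (.v, true), (.v, false), (.r, true), (.w, true), (.s, true), (.s, false), (.t, true)]⟩
def extraL : List (List (RuP.Gen × Bool)) := [
  [(.p, true), (.v, true), (.p, true), (.v, true), (.p, true), (.v, true), (.p, true), (.v, true), (.p, true), (.v, true), (.p, true), (.v, true), (.p, true), (.v, true), (.p, true), (.v, true)],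
  [(.p, true), (.s, true), (.p, true), (.s, true), (.p, true), (.s, true), (.p, true), (.s, true)],
  [(.q, true), (.v, true), (.q, true), (.v, true), (.q, true), (.v, true), (.q, true), (.v, true), (.q, true), (.v, true), (.q, true), (.v, true), (.q, true), (.v, true), (.q, true), (.v, true), (.q, true), (.v, true), (.q, true), (.v, true), (.q, true), (.v, true), (.q, true), (.v, true), (.q, true), (.v, true), (.q, true), (.v, true), (.q, true), (.v, true), (.q, true), (.v, true)],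
  [(.q, true), (.s, true), (.q, true), (.s, true), (.q, true), (.s, true), (.q, true), (.s, true)],
  [(.v, true), (.v, true), (.v, true), (.v, true)],
  [(.v, true), (.r, true), (.v, true), (.r, true), (.v, true), (.r, true), (.v, true), (.r, true), (.v, true), (.r, true), (.v, true), (.r, true), (.v, true), (.r, true), (.v, true), (.r, true), (.v, true), (.r, true), (.v, true), (.r, true), (.v, true), (.r, true), (.v, true), (.r, true), (.v, true), (.r, true), (.v, true), (.r, true), (.v, true), (.r, true), (.v, true), (.r, true)],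
  [(.v, true), (.w, true), (.v, true), (.w, true), (.v, true), (.w, true), (.v, true), (.w, true), (.v, true), (.w, true), (.v, true), (.w, true), (.v, true), (.w, true), (.v, true), (.w, true), (.v, true), (.w, true), (.v, true), (.w, true), (.v, true), (.w, true), (.v, true), (.w, true), (.v, true), (.w, true)],
  [(.v, true), (.s, true), (.v, true), (.s, true), (.v, true), (.s, true), (.v, true), (.s, true), (.v, true), (.s, true), (.v, true), (.s, true), (.v, true), (.s, true), (.v, true), (.s, true)],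
  [(.v, true), (.t, true), (.v, true), (.t, true), (.v, true), (.t, true), (.v, true), (.t, true), (.v, true), (.t, true), (.v, true), (.t, true), (.v, true), (.t, true), (.v, true), (.t, true)],
  [(.r, true), (.s, true), (.r, true), (.s, true), (.r, true), (.s, true), (.r, true), (.s, true)],
  [(.w, true), (.s, true), (.w, true), (.s, true), (.w, true), (.s, true), (.w, true), (.s, true), (.w, true), (.s, true), (.w, true), (.s, true), (.w, true), (.s, true), (.w, true), (.s, true), (.w, true), (.s, true), (.w, true), (.s, true), (.w, true), (.s, true), (.w, true), (.s, true), (.w, true), (.s, true), (.w, true), (.s, true), (.w, true), (.s, true), (.w, true), (.s, true)],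
  [(.s, true), (.s, true), (.s, true), (.s, true)],
  [(.s, true), (.t, true), (.s, true), (.t, true), (.s, true), (.t, true), (.s, true), (.t, true), (.s, true), (.t, true), (.s, true), (.t, true), (.s, true), (.t, true), (.s, true), (.t, true)],
  [(.r, true), (.q, true), (.p, true), (.q, true), (.r, true), (.q, true), (.p, true), (.q, true)],
  [(.v, true), (.p, true), (.r, true), (.p, true), (.r, true), (.p, true), (.v, false), (.p, true), (.q, true), (.p, true)],
  [(.v, true), (.q, true), (.p, true), (.r, true), (.q, true), (.r, true), (.v, true), (.p, true), (.q, true), (.p, true), (.q, true)],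
  [(.v, true), (.r, true), (.v, false), (.r, true), (.v, true), (.p, true), (.v, true), (.p, true), (.q, true)],
  [(.v, false), (.p, true), (.r, true), (.q, true), (.p, true), (.q, true), (.p, true), (.v, true), (.p, true), (.q, true), (.p, true), (.q, true), (.p, true)],
  [(.v, false), (.r, true), (.v, true), (.q, true), (.v, false), (.r, true), (.v, true), (.q, true)],
  [(.r, true), (.p, true), (.q, true), (.r, true), (.q, true), (.v, true), (.p, true), (.v, false), (.p, true), (.q, true)],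
  [(.r, true), (.p, true), (.v, true), (.r, true), (.q, true), (.p, true), (.r, true), (.v, true), (.q, true), (.p, true)],
  [(.w, true), (.p, true), (.v, true), (.p, true), (.v, false), (.p, true), (.w, true), (.p, true), (.v, true), (.p, true), (.v, false), (.p, true)],
  [(.w, true), (.p, true), (.v, false), (.w, true), (.v, true), (.p, true), (.w, true), (.q, true), (.p, true), (.v, true), (.q, true), (.v, false), (.p, true), (.q, true)],
  [(.w, true), (.q, true), (.r, true), (.q, true), (.r, true), (.q, true), (.w, true), (.p, true), (.v, true), (.p, true), (.v, false), (.p, true)],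
  [(.w, true), (.q, true), (.r, true), (.w, true), (.q, true), (.r, true), (.w, true), (.q, true), (.r, true)],
  [(.w, true), (.v, true), (.q, true), (.p, true), (.q, true), (.v, false), (.w, true), (.v, true), (.q, true), (.p, true), (.q, true), (.v, false)],
  [(.w, true), (.v, true), (.r, true), (.w, true), (.r, true), (.v, false), (.w, true), (.v, false), (.p, true), (.v, false), (.p, true), (.r, true), (.q, true), (.p, true)],
  [(.w, true), (.r, true), (.v, true), (.p, true), (.v, false), (.r, true), (.w, true), (.q, true), (.p, true), (.r, true), (.p, true), (.q, true), (.p, true), (.q, true), (.p, true)],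
  [(.w, true), (.p, true), (.v, true), (.r, true), (.w, true), (.p, true), (.w, true), (.v, true), (.w, true), (.v, true), (.r, true), (.v, false), (.q, true), (.v, false), (.p, true), (.q, true), (.p, true), (.q, true), (.p, true)],
  [(.s, true), (.p, true), (.s, false), (.q, true)],
  [(.s, true), (.q, true), (.s, false), (.p, true), (.q, true), (.p, true)],
  [(.s, true), (.v, true), (.s, false), (.p, true), (.v, false), (.q, true), (.v, true), (.r, true), (.v, false), (.p, true), (.q, true)],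
  [(.s, true), (.r, true), (.s, false), (.r, true)],
  [(.s, true), (.w, true), (.s, false), (.r, true), (.v, true), (.p, true), (.v, true), (.w, true), (.v, false), (.p, true), (.v, false), (.r, true)],
  [(.s, true), (.s, true), (.q, true), (.p, true), (.q, true)],
  [(.t, true), (.p, true), (.t, true), (.v, true), (.p, true), (.v, false), (.v, false), (.p, true), (.v, false)],
  [(.t, true), (.q, true), (.t, true), (.r, true), (.v, false), (.r, true), (.p, true), (.v, false), (.p, true)],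
  [(.t, true), (.v, true), (.t, true), (.q, true), (.v, true), (.r, true), (.q, true), (.p, true), (.v, false), (.s, false), (.p, true)],
  [(.t, true), (.r, true), (.t, true), (.v, true), (.p, true), (.v, false), (.p, true), (.r, true), (.q, true), (.p, true)],
  [(.t, true), (.s, true), (.t, true), (.v, false), (.v, false), (.q, true), (.r, true), (.v, true), (.p, true), (.q, true), (.p, true)],
  [(.t, true), (.w, true), (.p, true), (.q, true), (.w, true), (.t, true), (.v, true), (.w, true), (.q, true), (.p, true), (.w, true), (.t, true), (.w, true), (.q, true), (.v, false), (.q, true), (.w, true), (.v, true), (.p, true), (.v, true), (.r, true), (.v, false), (.s, false), (.p, true), (.q, true), (.p, true)],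
  [(.t, true), (.w, true), (.p, true), (.v, true), (.w, true), (.t, true), (.s, true), (.w, true), (.q, true), (.w, true), (.t, true), (.p, true), (.v, false), (.q, true), (.w, true), (.q, true), (.w, true), (.r, true), (.v, false), (.v, false), (.q, true)],
  [(.t, true), (.w, true), (.p, true), (.t, true), (.w, true), (.t, true), (.p, true), (.q, true), (.v, true), (.p, true), (.w, true), (.t, true), (.v, false), (.v, false), (.r, true), (.q, true), (.p, true), (.w, true), (.q, true), (.v, true), (.q, true), (.p, true), (.r, true), (.v, false), (.s, false), (.q, true), (.p, true)],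
  [(.t, true), (.w, true), (.q, true), (.p, true), (.t, true), (.w, true), (.s, false), (.v, true), (.t, true), (.p, true), (.w, true), (.t, true), (.w, true), (.r, true), (.p, true), (.v, true), (.q, true), (.w, true), (.r, true), (.q, true), (.p, true), (.q, true), (.v, true), (.s, false), (.q, true)]]
def R : List (List Nat) := [[0, 1, 0, 1, 0, 1, 0, 1, 0, 1],
  [0, 4, 0, 4, 0, 4, 0, 4, 0, 4, 0, 4, 0, 4, 0, 4],
  [0, 5, 0, 5, 0, 5, 0, 5],
  [0, 8, 0, 8, 0, 8, 0, 8],
  [1, 4, 1, 4, 1, 4, 1, 4, 1, 4, 1, 4, 1, 4, 1, 4],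
  [1, 5, 1, 5, 1, 5, 1, 5, 1, 5],
  [1, 8, 1, 8, 1, 8, 1, 8, 1, 8, 1, 8, 1, 8, 1, 8, 1, 8, 1, 8, 1, 8, 1, 8, 1, 8, 1, 8, 1, 8, 1, 8, 1, 8, 1, 8, 1, 8, 1, 8],
  [4, 5, 4, 5, 4, 5, 4, 5, 4, 5, 4, 5, 4, 5, 4, 5],
  [4, 8, 4, 8, 4, 8, 4, 8, 4, 8, 4, 8, 4, 8, 4, 8],
  [5, 8, 5, 8, 5, 8, 5, 8, 5, 8, 5, 8, 5, 8, 5, 8, 5, 8, 5, 8, 5, 8, 5, 8, 5, 8, 5, 8, 5, 8, 5, 8, 5, 8, 5, 8, 5, 8, 5, 8],
  [0, 2, 0, 2, 0, 2, 0, 2, 0, 2, 0, 2, 0, 2, 0, 2],
  [0, 6, 0, 6, 0, 6, 0, 6],
  [1, 2, 1, 2, 1, 2, 1, 2, 1, 2, 1, 2, 1, 2, 1, 2, 1, 2, 1, 2, 1, 2, 1, 2, 1, 2, 1, 2, 1, 2, 1, 2],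
  [1, 6, 1, 6, 1, 6, 1, 6],
  [2, 2, 2, 2],
  [2, 4, 2, 4, 2, 4, 2, 4, 2, 4, 2, 4, 2, 4, 2, 4, 2, 4, 2, 4, 2, 4, 2, 4, 2, 4, 2, 4, 2, 4, 2, 4],
  [2, 5, 2, 5, 2, 5, 2, 5, 2, 5, 2, 5, 2, 5, 2, 5, 2, 5, 2, 5, 2, 5, 2, 5, 2, 5],
  [2, 6, 2, 6, 2, 6, 2, 6, 2, 6, 2, 6, 2, 6, 2, 6],
  [2, 8, 2, 8, 2, 8, 2, 8, 2, 8, 2, 8, 2, 8, 2, 8],
  [4, 6, 4, 6, 4, 6, 4, 6],
  [5, 6, 5, 6, 5, 6, 5, 6, 5, 6, 5, 6, 5, 6, 5, 6, 5, 6, 5, 6, 5, 6, 5, 6, 5, 6, 5, 6, 5, 6, 5, 6],
  [6, 6, 6, 6],
  [6, 8, 6, 8, 6, 8, 6, 8, 6, 8, 6, 8, 6, 8, 6, 8],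
  [4, 1, 0, 1, 4, 1, 0, 1],
  [2, 0, 4, 0, 4, 0, 3, 0, 1, 0],
  [2, 1, 0, 4, 1, 4, 2, 0, 1, 0, 1],
  [2, 4, 3, 4, 2, 0, 2, 0, 1],
  [3, 0, 4, 1, 0, 1, 0, 2, 0, 1, 0, 1, 0],
  [3, 4, 2, 1, 3, 4, 2, 1],
  [4, 0, 1, 4, 1, 2, 0, 3, 0, 1],
  [4, 0, 2, 4, 1, 0, 4, 2, 1, 0],
  [5, 0, 2, 0, 3, 0, 5, 0, 2, 0, 3, 0],
  [5, 0, 3, 5, 2, 0, 5, 1, 0, 2, 1, 3, 0, 1],
  [5, 1, 4, 1, 4, 1, 5, 0, 2, 0, 3, 0],
  [5, 1, 4, 5, 1, 4, 5, 1, 4],
  [5, 2, 1, 0, 1, 3, 5, 2, 1, 0, 1, 3],
  [5, 2, 4, 5, 4, 3, 5, 3, 0, 3, 0, 4, 1, 0],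
  [5, 4, 2, 0, 3, 4, 5, 1, 0, 4, 0, 1, 0, 1, 0],
  [5, 0, 2, 4, 5, 0, 5, 2, 5, 2, 4, 3, 1, 3, 0, 1, 0, 1, 0],
  [6, 0, 7, 1],
  [6, 1, 7, 0, 1, 0],
  [6, 2, 7, 0, 3, 1, 2, 4, 3, 0, 1],
  [6, 4, 7, 4],
  [6, 5, 7, 4, 2, 0, 2, 5, 3, 0, 3, 4],
  [6, 6, 1, 0, 1],
  [8, 0, 8, 2, 0, 3, 3, 0, 3],
  [8, 1, 8, 4, 3, 4, 0, 3, 0],
  [8, 2, 8, 1, 2, 4, 1, 0, 3, 7, 0],
  [8, 4, 8, 2, 0, 3, 0, 4, 1, 0],
  [8, 6, 8, 3, 3, 1, 4, 2, 0, 1, 0],
  [8, 5, 0, 1, 5, 8, 2, 5, 1, 0, 5, 8, 5, 1, 3, 1, 5, 2, 0, 2, 4, 3, 7, 0, 1, 0],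
  [8, 5, 0, 2, 5, 8, 6, 5, 1, 5, 8, 0, 3, 1, 5, 1, 5, 4, 3, 3, 1],
  [8, 5, 0, 8, 5, 8, 0, 1, 2, 0, 5, 8, 3, 3, 4, 1, 0, 5, 1, 2, 1, 0, 4, 3, 7, 1, 0],
  [8, 5, 1, 0, 8, 5, 7, 2, 8, 0, 5, 8, 5, 4, 0, 2, 1, 5, 4, 1, 0, 1, 2, 7, 1]]
def allGens : List RuP.Gen := [.p, .q, .v, .r, .w, .s, .t]
theorem hall : ∀ x, x ∈ allGens := by intro x; cases x <;> decide
theorem hextra : RuP.extra = extraL.map FreeGroup.mk := rfl
set_option maxRecDepth 100000 in
theorem hOK : cc.OK RuP.edges extraL R allGens where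
  hlen := by decide +kernel
  c1 := by
    have h : ∀ c ∈ List.range cc.C, ∀ p ∈ cc.cols[c]?, cc.colOf p = c := by decide +kernel
    exact h
  c2 := by decide +kernel
  c3 := by decide +kernel
  c4 := by
    have h : ∀ c ∈ List.range cc.C, ∀ p ∈ cc.cols[c]?,
      cc.cols[cc.inv c]? = some (p.1, !p.2) ∨ (cc.inv c = c ∧ p.1 ∈ coxNodes RuP.edges) := by decide +kernel
    exact h
  c5 := by decide +kernel
  e1 := by decide +kernel
  x1 := by decide +kernel
  r1 := by decide +kernel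
theorem hinvC : ∀ c, c < cc.C → cc.inv c < cc.C := fun c hc => (hOK.c3 c (List.mem_range.mpr hc)).1
theorem hinv2 : ∀ c, c < cc.C → cc.inv (cc.inv c) = c := fun c hc => (hOK.c3 c (List.mem_range.mpr hc)).2
theorem hinvE : ∀ c, cc.C ≤ c → cc.inv c = c := fun c hc => inv_ge cc hOK.hlen c hc
theorem hRC : ∀ b ∈ R, ∀ c ∈ b, c < cc.C := by decide +kernel

end Cfsg.Agent.Lib.Helper35.PresRuP
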