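import Cfsg.Prelude.Def_Spor_Suz
import Cfsg.Agent.Lib.Helper35.Orbit

namespace Cfsg.Agent.Lib.Helper35.PresSuz

open Cfsg.Spor

def colIdx : Suz.Gen → Nat
  | .a => 0
  | .b => 1
  | .c => 2
  | .d => 3
  | .e => 4
  | .f => 5
  | .g => 6
def cc : CoxCols Suz.Gen := ⟨[0, 1, 2, 3, 4, 5, 6], colIdx,
  [(.a, true), (.b, true), (.c, true), (.d, true), (.e, true), (.f, true), (.g, true)]⟩
def extraL : List (List (Suz.Gen × Bool)) := [
  [(.a, true), (.d, false), (.c, false), (.d, false), (.c, false), (.d, false), (.c, false), (.d, false), (.c, false)],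
  [(.a, true), (.g, false), (.f, false), (.g, false), (.f, false)],
  [(.a, true), (.b, true), (.c, true), (.f, true), (.a, true), (.b, true), (.c, true), (.f, true), (.a, true), (.b, true), (.c, true), (.f, true), (.a, true), (.b, true), (.c, true), (.f, true), (.a, true), (.b, true), (.c, true), (.f, true)],
  [(.b, true), (.f, true), (.g, true), (.b, true), (.f, true), (.g, true), (.b, true), (.f, true), (.g, true), (.b, true), (.f, true), (.g, true), (.b, true), (.f, true), (.g, true)],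
  [(.b, true), (.c, true), (.d, true), (.c, true), (.d, true), (.b, true), (.c, true), (.d, true), (.c, true), (.d, true), (.b, true), (.c, true), (.d, true), (.c, true), (.d, true), (.b, true), (.c, true), (.d, true), (.c, true), (.d, true), (.b, true), (.c, true), (.d, true), (.c, true), (.d, true), (.e, true), (.b, true), (.c, true), (.d, true), (.c, true), (.d, true), (.b, true), (.c, true), (.d, true), (.c, true), (.d, true), (.b, true), (.c, true), (.d, true), (.c, true), (.d, true), (.b, true), (.c, true), (.d, true), (.c, true), (.d, true), (.b, true), (.c, true), (.d, true), (.c, true), (.d, true), (.e, true), (.b, true), (.c, true), (.d, true), (.c, true), (.d, true), (.b, true), (.c, true), (.d, true), (.c, true), (.d, true), (.b, true), (.c, true), (.d, true), (.c, true), (.d, true), (.b, true), (.c, true), (.d, true), (.c, true), (.d, true), (.b, true), (.c, true), (.d, true), (.c, true), (.d, true), (.e, true)]]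
def R : List (List Nat) := [[0, 1, 0, 1, 0, 1, 0, 1, 0, 1],
  [0, 2, 0, 2],
  [0, 3, 0, 3],
  [0, 4, 0, 4],
  [0, 5, 0, 5],
  [0, 6, 0, 6],
  [1, 2, 1, 2, 1, 2],
  [1, 3, 1, 3],
  [1, 4, 1, 4],
  [1, 5, 1, 5, 1, 5],
  [1, 6, 1, 6, 1, 6],
  [2, 3, 2, 3, 2, 3, 2, 3, 2, 3, 2, 3, 2, 3, 2, 3],
  [2, 4, 2, 4],
  [2, 5, 2, 5],
  [2, 6, 2, 6],
  [3, 4, 3, 4, 3, 4],
  [3, 5, 3, 5],
  [3, 6, 3, 6],
  [4, 5, 4, 5],
  [4, 6, 4, 6],
  [5, 6, 5, 6, 5, 6, 5, 6],
  [0, 3, 2, 3, 2, 3, 2, 3, 2],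
  [0, 6, 5, 6, 5],
  [0, 1, 2, 5, 0, 1, 2, 5, 0, 1, 2, 5, 0, 1, 2, 5, 0, 1, 2, 5],
  [1, 5, 6, 1, 5, 6, 1, 5, 6, 1, 5, 6, 1, 5, 6],
  [1, 2, 3, 2, 3, 1, 2, 3, 2, 3, 1, 2, 3, 2, 3, 1, 2, 3, 2, 3, 1, 2, 3, 2, 3, 4, 1, 2, 3, 2, 3, 1, 2, 3, 2, 3, 1, 2, 3, 2, 3, 1, 2, 3, 2, 3, 1, 2, 3, 2, 3, 4, 1, 2, 3, 2, 3, 1, 2, 3, 2, 3, 1, 2, 3, 2, 3, 1, 2, 3, 2, 3, 1, 2, 3, 2, 3, 4]]
def allGens : List Suz.Gen := [.a, .b, .c, .d, .e, .f, .g]
theorem hall : ∀ x, x ∈ allGens := by intro x; cases x <;> decide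
theorem hextra : Suz.extra = extraL.map FreeGroup.mk := rfl
set_option maxRecDepth 100000 in
theorem hOK : cc.OK Suz.edges extraL R allGens where
  hlen := by decide +kernel
  c1 := by
    have h : ∀ c ∈ List.range cc.C, ∀ p ∈ cc.cols[c]?, cc.colOf p = c := by decide +kernel
    exact h
  c2 := by decide +kernel
  c3 := by decide +kernel
  c4 := by
    have h : ∀ c ∈ List.range cc.C, ∀ p ∈ cc.cols[c]?,
      cc.cols[cc.inv c]? = some (p.1, !p.2) ∨ (cc.inv c = c ∧ p.1 ∈ coxNodes Suz.edges) := by decide +kernel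
    exact h
  c5 := by decide +kernel
  e1 := by decide +kernel
  x1 := by decide +kernel
  r1 := by decide +kernel
theorem hinvC : ∀ c, c < cc.C → cc.inv c < cc.C := fun c hc => (hOK.c3 c (List.mem_range.mpr hc)).1
theorem hinv2 : ∀ c, c < cc.C → cc.inv (cc.inv c) = c := fun c hc => (hOK.c3 c (List.mem_range.mpr hc)).2
theorem hinvE : ∀ c, cc.C ≤ c → cc.inv c = c := fun c hc => inv_ge cc hOK.hlen c hc
theorem hRC : ∀ b ∈ R, ∀ c ∈ b, c < cc.C := by decide +kernel

end Cfsg.Agent.Lib.Helper35.PresSuz
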