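import Cfsg.Agent.Lib.Helper35.PermReal

/-! A presented group on an initial segment of the columns of another one. -/

namespace Cfsg.Agent.Lib.Helper35

lemma wval_congr_lt {K : Type*} [Group K] (v v' : Nat → K) (C : Nat) (h : ∀ c, c < C → v c = v' c)
    (b : List Nat) (hb : ∀ c ∈ b, c < C) : wval v b = wval v' b := by
  induction b with
  | nil => rfl
  | cons c b ih =>
    rw [wval_cons, wval_cons, h c (hb c List.mem_cons_self),
      ih (fun c' hc' => hb c' (List.mem_cons_of_mem _ hc'))]

theorem exists_letter_hom {P G : Type} [Group P] [Group G] (I' : PresIface P) (I : PresIface G)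
    (hinv : ∀ c, c < I'.C → I'.inv c = I.inv c) (hinvC : ∀ c, c < I'.C → I'.inv c < I'.C)
    (hinvE : ∀ c, I'.C ≤ c → I'.inv c = c)
    (hRC : ∀ b ∈ I'.R, ∀ c ∈ b, c < I'.C) (hR : ∀ b ∈ I'.R, b ∈ I.R) :
    ∃ Θ : P →* G, ∀ c, c < I'.C → Θ (I'.val c) = I.val c := by
  obtain ⟨Θ, hΘ⟩ := I'.lift (fun c => if c < I'.C then I.val c else 1)
    (by intro c hc; exact if_neg (by omega))
    (by
      intro c
      rcases Nat.lt_or_ge c I'.C with hc | hc
      · show (if I'.inv c < I'.C then I.val (I'.inv c) else 1) = (if c < I'.C then I.val c else 1)⁻¹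
        rw [if_pos (hinvC c hc), if_pos hc, hinv c hc, I.hinv]
      · show (if I'.inv c < I'.C then I.val (I'.inv c) else 1) = (if c < I'.C then I.val c else 1)⁻¹
        rw [hinvE c hc, if_neg (by omega), inv_one])
    (by
      intro b hb
      rw [wval_congr_lt _ I.val I'.C (fun c hc => if_pos hc) b (hRC b hb)]
      exact I.hR b (hR b hb))
  exact ⟨Θ, fun c hc => by rw [hΘ c]; exact if_pos hc⟩

section

variable {G : Type} [Group G] (I : PresIface G) {S : List (List Nat)} {n : Nat}
  (D : PermData I.C I.inv I.R S n) (Φ : G →* Equiv.Perm (Fin (n + 1))) (hΦ : ∀ c, Φ (I.val c) = D.pv c)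

include hΦ in
/-- a simple presented group on an initial segment of columns fixing the base point gives a simple subgroup of
the point stabiliser of the permutation realisation -/
theorem exists_simple_in_stabilizer (hinj : Function.Injective Φ) {P : Type} [Group P] [IsSimpleGroup P]
    (I' : PresIface P) (hC : I'.C ≤ I.C)
    (hinv : ∀ c, c < I'.C → I'.inv c = I.inv c) (hinvC : ∀ c, c < I'.C → I'.inv c < I'.C)
    (hinvE : ∀ c, I'.C ≤ c → I'.inv c = c)
    (hRC : ∀ b ∈ I'.R, ∀ c ∈ b, c < I'.C) (hR : ∀ b ∈ I'.R, b ∈ I.R)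
    (hfix : ∀ c, c < I'.C → pwalk D.pt [c] 0 = 0)
    (c0 i0 : Nat) (hc0 : c0 < I'.C) (hi0 : i0 < n + 1) (hne : pwalk D.pt [c0] i0 ≠ pwalk D.pt [] i0) :
    ∃ L : Subgroup (MulAction.stabilizer Φ.range (0 : Fin (n + 1))), IsSimpleGroup L ∧ Nat.card L = Nat.card P := by
  obtain ⟨Θ, hΘ⟩ := exists_letter_hom I' I hinv hinvC hinvE hRC hR
  apply exists_simple_subgroup (MulAction.stabilizer Φ.range (0 : Fin (n + 1))) (Φ.rangeRestrict.comp Θ)
    (range_le_of_letters I' _ _ ?_) (I'.val c0)
  · intro h
    have h1 : Φ (Θ (I'.val c0)) = 1 := congrArg Subtype.val h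
    rw [hΘ c0 hc0] at h1
    have h2 : I.val c0 = 1 := hinj (by rw [h1, map_one])
    have h3 := model_ne D I.val Φ hΦ [c0] [] (by
      intro c hc
      simp only [List.mem_cons, List.not_mem_nil, or_false] at hc
      subst hc; omega) (by intro c hc; simp at hc) i0 hi0 hne
    apply h3
    simp [h2]
  · intro c
    rw [MulAction.mem_stabilizer_iff]
    rcases Nat.lt_or_ge c I'.C with hc | hc
    · show Φ (Θ (I'.val c)) 0 = 0
      rw [hΘ c hc]
      have h := walk_of_hom I.val D Φ hΦ [c] (by
        intro c' hc'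
        simp only [List.mem_cons, List.not_mem_nil, or_false] at hc'
        subst hc'; omega) 0
      have h2 : (Φ (wval I.val [c]))⁻¹ 0 = 0 := by
        apply Fin.ext
        rw [h]
        exact hfix c hc
      have h3 : wval I.val [c] = I.val c := by simp
      rw [h3, Equiv.Perm.inv_eq_iff_eq] at h2
      exact h2.symm
    · rw [I'.hval1 c hc, map_one]
      exact one_smul _ _

end

end Cfsg.Agent.Lib.Helper35
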