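import Cfsg.Agent.Lib.Helper35.Simple3

/-! Tables for words of a permutation model, and homomorphisms from presented groups into the model. -/

namespace Cfsg.Agent.Lib.Helper35

section

variable {C : Nat} {inv : Nat → Nat} {R S : List (List Nat)} {n : Nat}

lemma PermData.pwalk_lt (D : PermData C inv R S n) (W : List Nat) (hW : ∀ c ∈ W, c < C) (i : Nat)
    (hi : i < n + 1) : pwalk D.pt W i < n + 1 := by
  induction W generalizing i with
  | nil => exact hi
  | cons c W ih =>
    show pwalk D.pt W (D.pt c i) < n + 1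
    exact ih (fun c' hc' => hW c' (List.mem_cons_of_mem _ hc')) _ (D.chk c (hW c List.mem_cons_self) i hi).1

/-- tables `qt c` computing the action of the words `Ws[c]` -/
structure SubTab (D : PermData C inv R S n) (Ws : List (List Nat)) where
  qt : Nat → Nat → Nat
  hWC : ∀ W ∈ Ws, ∀ c ∈ W, c < C
  hq : ∀ c, c < Ws.length → ∀ i, i < n + 1 → qt c i = pwalk D.pt (Ws.getD c []) i

namespace SubTab

variable {D : PermData C inv R S n} {Ws : List (List Nat)} (T : SubTab D Ws)

include T in
lemma getD_lt (c : Nat) : ∀ l ∈ Ws.getD c [], l < C := by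
  rcases Nat.lt_or_ge c Ws.length with hc | hc
  · rw [List.getD_eq_getElem _ _ hc]
    exact T.hWC _ (List.getElem_mem hc)
  · rw [List.getD_eq_default _ _ hc]
    intro l hl; simp at hl

include T in
lemma expand_lt (b : List Nat) : ∀ l ∈ expand Ws b, l < C := by
  intro l hl
  unfold expand at hl
  obtain ⟨c, _, hc⟩ := List.mem_flatMap.mp hl
  exact T.getD_lt c l hc

lemma pwalk_expand (b : List Nat) (hb : ∀ c ∈ b, c < Ws.length) (i : Nat) (hi : i < n + 1) :
    pwalk D.pt (expand Ws b) i = pwalk T.qt b i := by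
  induction b generalizing i with
  | nil => rfl
  | cons c b ih =>
    have e : expand Ws (c :: b) = Ws.getD c [] ++ expand Ws b := by
      unfold expand; rw [List.flatMap_cons]
    rw [e, pwalk_append, ih (fun c' hc' => hb c' (List.mem_cons_of_mem _ hc')) _
      (D.pwalk_lt _ (T.getD_lt c) i hi), ← T.hq c (hb c List.mem_cons_self) i hi]
    rfl

theorem wval_eq_one (b : List Nat) (hb : ∀ c ∈ b, c < Ws.length)
    (h : ∀ i, i < n + 1 → pwalk T.qt b i = i) : wval D.pv (expand Ws b) = 1 :=
  D.pv_eq_one _ (T.expand_lt b) (fun i hi => by rw [T.pwalk_expand b hb i hi]; exact h i hi)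

/-- homomorphism from a presented group sending the letters to the words -/
theorem exists_hom {P : Type} [Group P] (I' : PresIface P) (hlen : Ws.length = I'.C)
    (hinvC : ∀ c, c < I'.C → I'.inv c < I'.C) (hinvE : ∀ c, I'.C ≤ c → I'.inv c = c)
    (hRC : ∀ b ∈ I'.R, ∀ c ∈ b, c < I'.C)
    (hinv : ∀ c, c < I'.C → ∀ i, i < n + 1 → pwalk T.qt [I'.inv c, c] i = i)
    (hrel : ∀ b ∈ I'.R, ∀ i, i < n + 1 → pwalk T.qt b i = i) :
    ∃ Θ : P →* Equiv.Perm (Fin (n + 1)), ∀ c, Θ (I'.val c) = wval D.pv (Ws.getD c []) := by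
  apply I'.lift (fun c => wval D.pv (Ws.getD c []))
  · intro c hc
    show wval D.pv (Ws.getD c []) = 1
    rw [List.getD_eq_default _ _ (by omega)]; rfl
  · intro c
    show wval D.pv (Ws.getD (I'.inv c) []) = (wval D.pv (Ws.getD c []))⁻¹
    rcases Nat.lt_or_ge c I'.C with hc | hc
    · apply eq_inv_of_mul_eq_one_left
      have h := T.wval_eq_one [I'.inv c, c] (by
        intro c' hc'
        simp only [List.mem_cons, List.not_mem_nil, or_false] at hc'
        rcases hc' with rfl | rfl
        · rw [hlen]; exact hinvC c hc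
        · rw [hlen]; exact hc) (hinv c hc)
      rw [← wval_expand] at h
      simpa using h
    · rw [hinvE c hc, List.getD_eq_default _ _ (by omega)]; simp
  · intro b hb
    rw [wval_expand]
    exact T.wval_eq_one b (fun c hc => by rw [hlen]; exact hRC b hb c hc) (hrel b hb)

end SubTab

end

/-- the image of a simple group under a nontrivial homomorphism into a subgroup -/
theorem exists_simple_subgroup {P : Type*} [Group P] [IsSimpleGroup P] {K : Type*} [Group K]
    (H : Subgroup K) (Θ : P →* K) (hle : Θ.range ≤ H) (a : P) (ha : Θ a ≠ 1) :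
    ∃ L : Subgroup H, IsSimpleGroup L ∧ Nat.card L = Nat.card P := by
  have hinj : Function.Injective Θ := by
    rw [← MonoidHom.ker_eq_bot_iff]
    rcases (MonoidHom.normal_ker Θ).eq_bot_or_eq_top with h | h
    · exact h
    · exfalso
      apply ha
      have : a ∈ Θ.ker := by rw [h]; exact Subgroup.mem_top a
      exact this
  let e : (Θ.range).subgroupOf H ≃* P :=
    (Subgroup.subgroupOfEquivOfLe hle).trans (MonoidHom.ofInjective hinj).symm
  exact ⟨(Θ.range).subgroupOf H, e.isSimpleGroup, Nat.card_congr e.toEquiv⟩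

/-- the range of a homomorphism from a presented group lies in a subgroup containing the images of letters -/
lemma range_le_of_letters {P : Type} [Group P] (I' : PresIface P) {K : Type*} [Group K] (Θ : P →* K)
    (H : Subgroup K) (h : ∀ c, Θ (I'.val c) ∈ H) : Θ.range ≤ H := by
  rw [MonoidHom.range_eq_map, ← I'.hgen, MonoidHom.map_closure, Subgroup.closure_le]
  rintro _ ⟨_, ⟨c, _, rfl⟩, rfl⟩
  exact h c

end Cfsg.Agent.Lib.Helper35
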